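import Mathlib
import Cfsg.Prelude.Def_Perm

set_option autoImplicit false

namespace Cfsg.Agent.H24

section NearField

variable {F : Type*} [Cfsg.NearField F]

theorem nf_zero_mul (a : F) : (0 : F) * a = 0 := by
  have h := Cfsg.NearField.right_distrib (0 : F) 0 a
  rw [add_zero] at h
  exact left_eq_add.mp h

theorem nf_neg_mul (x a : F) : (-x) * a = -(x * a) := by
  have h := Cfsg.NearField.right_distrib (-x) x a
  rw [neg_add_cancel, nf_zero_mul] at h
  exact eq_neg_of_add_eq_zero_left h.symm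

theorem nf_mul_ne_zero {a b : F} (ha : a ≠ 0) (hb : b ≠ 0) : a * b ≠ 0 := by
  intro h
  obtain ⟨c, hc, -⟩ := Cfsg.NearField.exists_inv b hb
  apply ha
  rw [← mul_one a, ← hc, ← mul_assoc, h, nf_zero_mul]

theorem nf_inv_ne_zero {a b : F} (h : a * b = 1) : b ≠ 0 := by
  rintro rfl
  rw [Cfsg.NearField.mul_zero] at h
  exact Cfsg.NearField.zero_ne_one h

/-- Right multiplication as an additive homomorphism. -/
def nfMulRight (a : F) : F →+ F where
  toFun x := x * a
  map_zero' := nf_zero_mul a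
  map_add' x y := Cfsg.NearField.right_distrib x y a

theorem nf_exists_mul_eq {x y : F} (hx : x ≠ 0) (hy : y ≠ 0) : ∃ a : F, a ≠ 0 ∧ x * a = y := by
  obtain ⟨c, hc, hc'⟩ := Cfsg.NearField.exists_inv x hx
  refine ⟨c * y, nf_mul_ne_zero (nf_inv_ne_zero hc) hy, ?_⟩
  rw [← mul_assoc, hc, one_mul]

end NearField

end Cfsg.Agent.H24
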