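import Cfsg.Agent.H24.Trans7
import Cfsg.Agent.H78.U33Pres
import Cfsg.Agent.S0219

/-! Solvable groups that are regular on the non-zero vectors. -/

set_option autoImplicit false

namespace Cfsg.Agent.H24

open Subgroup Module

theorem q8_aut (β : MulAut (QuaternionGroup 2)) (h3 : β ^ 3 = 1) (h1 : β ≠ 1) :
    ∃ i, i * i ≠ 1 ∧ i ^ 4 = 1 ∧ β i * β i = i * i ∧ β i * i * (β i)⁻¹ = i⁻¹ ∧ β (β i) = i * β i := by
  obtain ⟨i, h2, h4⟩ : ∃ i, i * i ≠ 1 ∧ β i ≠ i := by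
    by_contra h
    push Not at h
    refine h1 (MulEquiv.ext fun x => ?_)
    rcases (by decide : ∀ x : QuaternionGroup 2, x * x ≠ 1 ∨ x = 1 ∨ x = .a 1 * .a 1) x with
      e | rfl | rfl
    · exact h x e
    · exact map_one β
    · rw [map_mul, h _ (by decide)]; rfl
  have h5 : ∀ x, β (β (β x)) = x := fun x => by
    have := DFunLike.congr_fun h3 x
    simpa [pow_succ] using this
  have h6 : ∀ x, x * x ≠ 1 ∧ β x ≠ x → (β x * β x ≠ 1 ∧ β (β x) ≠ β x) ∧ β x ≠ x⁻¹ := fun x h =>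
    ⟨⟨by rw [← map_mul]; exact mt β.map_eq_one_iff.1 h.1, β.injective.ne h.2⟩, fun e => h.2 (by
      have h7 := h5 x
      rwa [show β (β x) = x by rw [e, map_inv, e, inv_inv]] at h7)⟩
  obtain ⟨a1, a2⟩ := h6 i ⟨h2, h4⟩
  obtain ⟨a3, a4⟩ := h6 _ a1
  obtain ⟨a5, a6⟩ := h6 _ a3
  rw [h5] at a6
  have a7 := a3.2
  rw [h5] at a7
  have key : ∀ i j k : QuaternionGroup 2, i * i ≠ 1 ∧ j * j ≠ 1 ∧ k * k ≠ 1 ∧ j ≠ i ∧ j ≠ i⁻¹ ∧
      k ≠ j ∧ k ≠ j⁻¹ ∧ i ≠ k ∧ i ≠ k⁻¹ →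
      (i ^ 4 = 1 ∧ j * j = i * i ∧ j * i * j⁻¹ = i⁻¹ ∧ k = i * j) ∨ (i⁻¹ * i⁻¹ ≠ 1 ∧ i⁻¹ ^ 4 = 1 ∧
        j⁻¹ * j⁻¹ = i⁻¹ * i⁻¹ ∧ j⁻¹ * i⁻¹ * j⁻¹⁻¹ = i⁻¹⁻¹ ∧ k⁻¹ = i⁻¹ * j⁻¹) := by decide
  rcases key _ _ _ ⟨h2, a1.1, a3.1, h4, a2, a1.2, a4, a7, a6⟩ with h | h
  · exact ⟨i, h2, h⟩
  · exact ⟨i⁻¹, by simpa only [map_inv] using h⟩

variable {G V : Type*} [Group G] [AddCommGroup V] [DistribMulAction G V]

theorem exists_SL23 {N : Subgroup G} [N.Normal] (e : N ≃* QuaternionGroup 2) {w : G}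
    (hw : w ^ 3 = 1) (hc : w ∉ centralizer (N : Set G)) :
    ∃ φ : S0106.SL23 →* G, Function.Injective φ := by
  let α : G →* MulAut (QuaternionGroup 2) := (MulAut.congr e).toMonoidHom.comp MulAut.conjNormal
  let ι : QuaternionGroup 2 →* G := N.subtype.comp e.symm.toMonoidHom
  have hα : ∀ s, ι (α w s) = w * ι s * w⁻¹ := fun s =>
    congrArg Subtype.val (e.symm_apply_apply (MulAut.conjNormal w (e.symm s)))
  obtain ⟨i, a0, a1, a2, a3, a4⟩ := q8_aut (α w) (by rw [← map_pow, hw, map_one]) fun h =>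
    hc fun y hy => by
      have := hα (e ⟨y, hy⟩)
      rw [h, MulAut.one_apply, eq_mul_inv_iff_mul_eq] at this
      simpa [ι] using this
  obtain ⟨φ, h1, -⟩ := H78.exists_hom_SL23 (i := ι i) (j := ι (α w i)) (a := w)
    (by rw [← map_pow, a1, map_one]) (by rw [← map_mul, a2, map_mul])
    (by rw [← map_inv, ← map_mul, ← map_mul, a3, map_inv]) hw (hα i).symm
    (by rw [← hα, a4, map_mul])
  refine ⟨φ, H78.SL23_injective φ ?_⟩
  rw [h1, ← map_mul]
  exact mt (map_eq_one_iff ι (N.subtype_injective.comp e.symm.injective)).1 a0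

theorem idx_two_of_metacyclic [Finite G] {H : Type*} [Group H] [IsCyclic H] (σ : G →* H)
    (hk : IsCyclic σ.ker) (h : Even (Nat.card G)) : ∃ K : Subgroup G, K.index = 2 := by
  have : Finite σ.range := Finite.of_surjective _ σ.rangeRestrict_surjective
  by_cases h1 : Even (Nat.card σ.range)
  · obtain ⟨K, hK⟩ := S0219.result h1 default inferInstance
    exact ⟨K.comap σ.rangeRestrict, by rw [index_comap_of_surjective _ σ.rangeRestrict_surjective, hK]⟩
  · let T : Sylow 2 G := default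
    refine S0219.result h T (isCyclic_of_le (H' := σ.ker) ?_)
    obtain ⟨n, hn⟩ := T.isPGroup'.exists_card_eq
    rw [← Subgroup.map_eq_bot_iff, ← card_eq_one]
    exact Nat.eq_one_of_dvd_coprimes (Nat.Coprime.pow_left n (Nat.coprime_two_left.2
      (Nat.not_even_iff_odd.1 h1))) (hn ▸ card_map_dvd T.1 σ) (card_dvd_of_le (map_le_range σ T.1))

namespace Reg
variable (R : Reg G V) [Nontrivial V] [Finite G] [Finite V]
include R

theorem exists_c4 {A N : Subgroup G} (hA : MaxAb A) (hN : MinNA A N) (h : Nat.card V = 3 ^ 2) :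
    ∃ B : Subgroup G, B.index = 2 ∧ IsCyclic B ∧ Nat.card B = 4 := by
  obtain ⟨x, -, hx⟩ := hN.exists_four hA R.fpf
  have h1 := (zpowers x).card_mul_index
  rw [Nat.card_zpowers, hx, R.card_eq, h] at h1
  exact ⟨zpowers x, by omega, inferInstance, by rw [Nat.card_zpowers, hx]⟩

theorem solv_q8 [Group.IsSolvable G] {A N : Subgroup G} (hA : MaxAb A) (hN : MinNA A N) :
    Nonempty (N ≃* QuaternionGroup 2) :=
  ((hN.q8_or hA R.fpf).resolve_right fun ⟨e⟩ =>
    SL5.not_isSolvable (Group.isSolvable_of_surjective (f := e.toMonoidHom) e.surjective)).1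

theorem solv_semilin [Group.IsSolvable G] :
    (∃ (F : Type) (_ : Field F) (_ : Fintype F) (e : V ≃+ F),
        ∀ g : G, ∃ (a : F) (σ : F ≃+* F), ∀ v : V, e (g • v) = a * σ (e v)) ∨
    Nat.card V ∈ ({25, 49, 121, 529} : Set ℕ) := by
  have := R.faithful
  obtain ⟨A, hA⟩ := exists_maxAb (G := G)
  have := hA.normal
  obtain ⟨F, _, _, _, σ, h⟩ := exists_FS R.ht A hA.comm
  by_cases hm : finrank F V = 1
  · exact Or.inl ⟨F, _, ‹_›, h.semilin hm⟩
  obtain ⟨N, -, hN⟩ := exists_minNA inferInstance le_rfl (h.cent_nc hA R.ht hm)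
  obtain ⟨e⟩ := R.solv_q8 hA hN
  obtain ⟨-, -, -, p, rfl | h1, h2, -⟩ := R.q8 hA hN e
  · obtain ⟨B, h3, h4, h5⟩ := R.exists_c4 hA hN h2
    have := normal_of_index_eq_two h3
    obtain ⟨F, _, _, _, σ, h⟩ := exists_FS R.ht B (comm_iff.1 IsCyclic.isMulCommutative)
    refine Or.inl ⟨F, _, ‹_›, h.semilin ?_⟩
    by_contra h6
    have h7 := Nat.pow_le_pow_right (Fintype.card_pos (α := F)) (FS.two_le h6)
    rw [← FS.card_V, h2, Nat.pow_le_pow_iff_left two_ne_zero] at h7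
    have h8 := Nat.le_of_dvd (Nat.sub_pos_of_lt Fintype.one_lt_card) (h5 ▸ h.card_dvd)
    omega
  · right
    rw [h2]
    rcases h1 with rfl | rfl | rfl | rfl <;> simp

theorem solv_idx [Group.IsSolvable G] (hG : Even (Nat.card G)) : (∃ K : Subgroup G, K.index = 2) ∨
    (Nat.card V = 25 ∧ Nonempty (G ≃* S0106.SL23)) ∨
    (Nat.card V = 121 ∧ Nonempty (G ≃* S0106.SL23 × Multiplicative (ZMod 5))) := by
  have := R.faithful
  obtain ⟨A, hA⟩ := exists_maxAb (G := G)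
  have := hA.normal
  obtain ⟨F, _, _, _, σ, h⟩ := exists_FS R.ht A hA.comm
  by_cases hm : finrank F V = 1
  · have := H29.isCyclic_ringAut (F := F)
    refine Or.inl (idx_two_of_metacyclic σ ?_ hG)
    rw [h.ker, le_antisymm (hA.max _ inferInstance le_rfl (comm_iff.1 (h.cent_comm hm))) hA.le_cent]
    exact h.isCyclic
  obtain ⟨N, -, hN⟩ := exists_minNA inferInstance le_rfl (h.cent_nc hA R.ht hm)
  obtain ⟨e⟩ := R.solv_q8 hA hN
  obtain ⟨h1, h2, h3, p, h4, h5, h6⟩ := R.q8 hA hN e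
  have := hN.normal
  obtain ⟨ε⟩ := S3742.result
  let ψ : G →* Equiv.Perm (Fin 4) := ((MulAut.congr e).trans ε).toMonoidHom.comp MulAut.conjNormal
  have hk : ψ.ker = A := by
    rw [← h2]
    ext g
    rw [MonoidHom.mem_ker, MonoidHom.comp_apply, MulEquiv.coe_toMonoidHom, MulEquiv.map_eq_one_iff]
    exact ⟨fun e y hy => eq_mul_inv_iff_mul_eq.1
      (congrArg Subtype.val (DFunLike.congr_fun e ⟨y, hy⟩) :).symm,
      fun e => MulEquiv.ext fun y => Subtype.ext (mul_inv_eq_iff_eq_mul.2 (e y y.2).symm)⟩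
  by_cases h7 : ψ.range ≤ alternatingGroup (Fin 4)
  swap
  · refine Or.inl ⟨(Equiv.Perm.sign.comp ψ).ker, ?_⟩
    obtain ⟨_, ⟨g, rfl⟩, hg⟩ := SetLike.not_le_iff_exists.1 h7
    rw [index_ker, MonoidHom.range_eq_top.2, card_top, Nat.card_eq_fintype_card]
    · rfl
    · intro u
      rcases Int.units_eq_one_or u with rfl | rfl
      · exact ⟨1, map_one _⟩
      · exact ⟨g, (Int.units_eq_one_or _).resolve_left hg⟩
  have h8 : A.index ∣ 12 := by
    have h9 := two_mul_nat_card_alternatingGroup (α := Fin 4)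
    rw [Nat.card_perm, Nat.card_eq_fintype_card (α := Fin 4), Fintype.card_fin] at h9
    simp only [Nat.factorial] at h9
    rw [← hk, index_ker, show 12 = Nat.card (alternatingGroup (Fin 4)) by omega]
    exact card_dvd_of_le h7
  have h9 : 4 ∣ A.index := h3 ▸ relIndex_dvd_index_of_normal A N
  have h10 := A.card_mul_index
  have h11 := R.card_eq
  rw [h5] at h11
  have h12 : A.index = 4 ∨ A.index = 12 := by
    have := Nat.le_of_dvd (by norm_num) h8
    generalize A.index = c at *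
    interval_cases c <;> simp_all (config := { decide := true })
  have h13 : Nat.card A = 2 ∨ Nat.card A = 10 → 3 ∣ Nat.card G → ∃ φ : S0106.SL23 →* G,
      Function.Injective φ := fun a1 a2 => by
    obtain ⟨w, hw⟩ := exists_prime_orderOf_dvd_card' 3 a2
    refine exists_SL23 e (hw ▸ pow_orderOf_eq_one w) fun a3 => ?_
    have := hw ▸ A.orderOf_dvd_natCard (h2 ▸ a3)
    omega
  rcases h4 with rfl | rfl | rfl | rfl | rfl
  · obtain ⟨B, a1, -⟩ := R.exists_c4 hA hN h5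
    exact Or.inl ⟨B, a1⟩
  all_goals have h14 := Nat.le_of_dvd (by norm_num) h6
  all_goals rcases h12 with h12 | h12 <;> rw [h12, h11] at h10 <;> try omega
  · obtain ⟨φ, hφ⟩ := h13 (by omega) (by omega)
    exact Or.inr (Or.inl ⟨h5, ⟨(MulEquiv.ofBijective φ ((Nat.bijective_iff_injective_and_card φ).2
      ⟨hφ, by rw [H78.card_SL23, h11]; rfl⟩)).symm⟩⟩)
  · rw [show Nat.card A = 4 by omega] at h6
    exact absurd h6 (by decide)
  · obtain ⟨φ, hφ⟩ := h13 (by omega) (by omega)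
    have : Fact (Nat.Prime 5) := ⟨by norm_num⟩
    exact Or.inr (Or.inr ⟨h5, prod_equiv φ hφ (A := A) (le_centralizer_iff.1 (h1 ▸ le_top))
      (by omega) (by rw [H78.card_SL23]; decide) (by rw [H78.card_SL23, h11]; rfl)⟩)

end Reg

end Cfsg.Agent.H24
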