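import Cfsg.Agent.H24.Trans8

/-! Regular linear groups over the prime field. -/

set_option autoImplicit false

namespace Cfsg.Agent.H24

open Subgroup Module

variable {p : ℕ} [Fact p.Prime] {V : Type*} [AddCommGroup V] [Module (ZMod p) V]
  {H : Subgroup (V ≃ₗ[ZMod p] V)}

theorem finite_lin [Finite V] : Finite H :=
  Finite.of_injective (fun h : H => ((h : V ≃ₗ[ZMod p] V) : V → V))
    (DFunLike.coe_injective.comp Subtype.val_injective)

theorem reg_of (hreg : ∀ v w : V, v ≠ 0 → w ≠ 0 → ∃! h : H, (h : V ≃ₗ[ZMod p] V) v = w) :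
    Reg H V :=
  ⟨fun v w hv hw => (hreg v w hv hw).exists, fun _ hg v e => by_contra fun hv =>
    hg ((hreg v v hv hv).unique e rfl)⟩

variable (hI : ∀ A : Subgroup H, A.Normal → IsCyclic A → ∃ W : Submodule (ZMod p) V, W ≠ ⊥ ∧ W ≠ ⊤ ∧
  ∀ a ∈ A, ∀ v ∈ W, ((a : H) : V ≃ₗ[ZMod p] V) v ∈ W)
include hI

theorem nontriv_of : Nontrivial V := by
  obtain ⟨W, h, -⟩ := hI ⊥ inferInstance inferInstance
  obtain ⟨v, -, hv⟩ := W.ne_bot_iff.1 h
  exact ⟨⟨v, 0, hv⟩⟩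

theorem rank_ne [Finite V] [Nontrivial V] [FaithfulSMul H V] {A : Subgroup H} (hA : A.Normal) {F : Type}
    [Field F] [Module F V] {σ : H →* RingAut F} (h : FS V A F σ) : finrank F V ≠ 1 := by
  intro e
  have := finite_lin (H := H)
  obtain ⟨W, h1, h2, h3⟩ := hI A hA h.isCyclic
  obtain ⟨v, hv, h4⟩ := W.ne_bot_iff.1 h1
  refine h2 (eq_top_iff.2 fun w _ => ?_)
  obtain ⟨c, rfl⟩ := (finrank_eq_one_iff_of_nonzero' v h4).1 e w
  exact h.gen W.toAddSubgroup h3 c v hv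

end Cfsg.Agent.H24
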